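import Cfsg.Agent.H19.OrthTensor.Vectors
import Cfsg.Agent.H19.OrthTensor.Small.Space
import Cfsg.Agent.H5.Hyperbolic

/-!
Counting in a three-dimensional orthogonal space: rotations and involutions with a prescribed axis norm.
-/

set_option autoImplicit false
set_option linter.unusedSectionVars false

namespace Cfsg.Agent.H6.OmegaNine

open QuadraticMap hiding sq
open Cfsg.Agent.H5 Cfsg.Agent.H19.OrthTensor Module

variable {F V : Type*} [Field F] [Finite F] [AddCommGroup V] [Module F V] [Finite V]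
  [FiniteDimensional F V] {Q : QuadraticForm F V}

/-- A completion of a singular vector to a frame. -/
theorem exists_frame3 (hQ : (polarBilin Q).Nondegenerate) (hV : finrank F V = 3) {p : V} (hp0 : p ≠ 0)
    (hp : Q p = 0) : ∃ f a, HypPair Q p f ∧ a ∈ pperp Q p f ∧ Q a ≠ 0 := by
  obtain ⟨f, hf⟩ := exists_hypPair (Q := Q) hQ hp0 hp
  obtain ⟨a, ha, hQa⟩ := exists_anisotropic (hf.inf_perp hQ) (by have := hf.finrank_pperp hQ; omega)
  exact ⟨f, a, hf, ha, hQa⟩

/-- Coordinates in a frame. -/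
theorem frame3_coords (hQ : (polarBilin Q).Nondegenerate) (hV : finrank F V = 3) {p f a : V}
    (hf : HypPair Q p f) (ha : a ∈ pperp Q p f) (hQa : Q a ≠ 0) (x : V) :
    ∃ s : F, x = polar Q f x • p + polar Q p x • f + s • a ∧ polar Q a x = s * (2 * Q a) := by
  have hd : finrank F (pperp Q p f) = 1 := by have := hf.finrank_pperp hQ; omega
  obtain ⟨s, hs⟩ := (finrank_eq_one_iff_of_nonzero' (⟨a, ha⟩ : pperp Q p f)
    (fun h0 => hQa (by rw [show a = 0 from congrArg Subtype.val h0, QuadraticMap.map_zero]))).1 hd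
    ⟨_, hf.decomp x⟩
  have hs' : s • a = x - polar Q f x • p - polar Q p x • f := congrArg Subtype.val hs
  obtain ⟨h1, h2⟩ := mem_pperp.1 ha
  have hx : x = polar Q f x • p + polar Q p x • f + s • a := by rw [hs']; abel
  refine ⟨s, hx, ?_⟩
  conv_lhs => rw [hx]
  rw [polar_add_right, polar_add_right, polar_smul_right, polar_smul_right, polar_smul_right,
    polar_comm (⇑Q) a p, polar_comm (⇑Q) a f, h1, h2, polar_self']
  simp [smul_eq_mul]

theorem frame3_value {p f a : V} (hf : HypPair Q p f) (ha : a ∈ pperp Q p f) (x y z : F) :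
    Q (x • p + y • f + z • a) = x * y + z * z * Q a := by
  obtain ⟨h1, h2⟩ := mem_pperp.1 ha
  simp only [QuadraticMap.map_add (⇑Q), QuadraticMap.map_smul, polar_add_left, polar_smul_left,
    polar_smul_right, hf.left, hf.right, hf.pair, h1, h2, smul_eq_mul]
  ring

theorem card_units_field : Nat.card Fˣ = Nat.card F - 1 := Nat.card_units F

/-- The rotations of a three-dimensional space. -/
theorem card_rot (hQ : (polarBilin Q).Nondegenerate) (h2 : (2 : F) ≠ 0) (hV : finrank F V = 3) :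
    Nat.card {k : orth Q // dick k = 1} ≤ Nat.card F * (Nat.card F ^ 2 - 1) := by
  classical
  obtain ⟨p, hp0, hp⟩ := H5.exists_singular (Q := Q) hQ (by omega)
  obtain ⟨f, a, hf, ha, hQa⟩ := exists_frame3 hQ hV hp0 hp
  let S := {v : V // v ≠ 0 ∧ Q v = 0}
  have hS : Nat.card S ≤ Nat.card (Fˣ × F ⊕ Fˣ) := by
    have key : ∀ v : S, polar Q f v.1 = 0 → polar Q p v.1 ≠ 0 ∧ v.1 = polar Q p v.1 • f := by
      rintro ⟨v, hv0, hv⟩ h0
      obtain ⟨s, hs, -⟩ := frame3_coords hQ hV hf ha hQa v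
      simp only at h0 ⊢
      have hval := hv
      rw [hs, frame3_value hf ha, h0, zero_mul, zero_add] at hval
      have hs0 : s = 0 := mul_self_eq_zero.1 ((mul_eq_zero.1 hval).resolve_right hQa)
      rw [h0, zero_smul, zero_add, hs0, zero_smul, add_zero] at hs
      exact ⟨fun h => hv0 (by rw [hs, h, zero_smul]), hs⟩
    refine Nat.card_le_card_of_injective (fun v : S =>
      if h : polar Q f v.1 = 0 then Sum.inr (Units.mk0 _ (key v h).1)
      else Sum.inl (Units.mk0 _ h, polar Q a v.1)) ?_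
    intro v w hvw
    simp only at hvw
    by_cases hv : polar Q f v.1 = 0 <;> by_cases hw : polar Q f w.1 = 0
    · rw [dif_pos hv, dif_pos hw, Sum.inr.injEq, Units.ext_iff] at hvw
      exact Subtype.ext (by rw [(key v hv).2, (key w hw).2]; exact congrArg (· • f) hvw)
    · rw [dif_pos hv, dif_neg hw] at hvw; exact absurd hvw (by simp)
    · rw [dif_neg hv, dif_pos hw] at hvw; exact absurd hvw (by simp)
    · rw [dif_neg hv, dif_neg hw, Sum.inl.injEq, Prod.mk.injEq, Units.ext_iff, Units.val_mk0,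
        Units.val_mk0] at hvw
      obtain ⟨s, hs, hsa⟩ := frame3_coords hQ hV hf ha hQa v.1
      obtain ⟨r, hr, hra⟩ := frame3_coords hQ hV hf ha hQa w.1
      have hsr : s = r := mul_right_cancel₀ (mul_ne_zero h2 hQa) (by rw [← hsa, ← hra, hvw.2])
      have e1 : Q v.1 = 0 := v.2.2
      have e2 : Q w.1 = 0 := w.2.2
      rw [hs, frame3_value hf ha] at e1
      rw [hr, frame3_value hf ha, ← hsr, ← hvw.1] at e2
      have hy : polar Q p v.1 = polar Q p w.1 := mul_left_cancel₀ hv (by linear_combination e1 - e2)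
      exact Subtype.ext (by rw [hs, hr, hy, hvw.1, hsr])
  choose F0 A0 hF0 hA0 hQA0 using fun v : S => exists_frame3 hQ hV v.2.1 v.2.2
  let img : {k : orth Q // dick k = 1} → S := fun k => ⟨(k.1 : V ≃ₗ[F] V) p,
    fun h => hp0 ((k.1 : V ≃ₗ[F] V).map_eq_zero_iff.1 h), by rw [orth_map, hp]⟩
  have hinj : Function.Injective fun k : {k : orth Q // dick k = 1} =>
      (img k, polar Q (A0 (img k)) ((k.1 : V ≃ₗ[F] V) f)) := by
    rintro k k' hkk
    simp only [Prod.mk.injEq] at hkk
    obtain ⟨hi, hz⟩ := hkk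
    rw [← hi] at hz
    have hpk : (k.1 : V ≃ₗ[F] V) p = (k'.1 : V ≃ₗ[F] V) p := congrArg Subtype.val hi
    set P' := (k.1 : V ≃ₗ[F] V) p with hP'
    have h1 : polar Q P' ((k.1 : V ≃ₗ[F] V) f) = 1 := by rw [orth_polar, hf.pair]
    have h1' : polar Q P' ((k'.1 : V ≃ₗ[F] V) f) = 1 := by rw [hpk, orth_polar, hf.pair]
    have hfk : (k.1 : V ≃ₗ[F] V) f = (k'.1 : V ≃ₗ[F] V) f := by
      obtain ⟨s, hs, hsa⟩ := frame3_coords hQ hV (hF0 (img k)) (hA0 (img k)) (hQA0 _) ((k.1 : V ≃ₗ[F] V) f)
      obtain ⟨r, hr, hra⟩ := frame3_coords hQ hV (hF0 (img k)) (hA0 (img k)) (hQA0 _) ((k'.1 : V ≃ₗ[F] V) f)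
      have hsr : s = r := mul_right_cancel₀ (mul_ne_zero h2 (hQA0 (img k))) (by rw [← hsa, ← hra, hz])
      have e1 : Q ((k.1 : V ≃ₗ[F] V) f) = 0 := by rw [orth_map, hf.right]
      have e2 : Q ((k'.1 : V ≃ₗ[F] V) f) = 0 := by rw [orth_map, hf.right]
      change _ = _ • P' + polar Q P' _ • _ + _ at hs
      change _ = _ • P' + polar Q P' _ • _ + _ at hr
      rw [h1] at hs
      rw [h1', ← hsr] at hr
      have v1 := frame3_value (hF0 (img k)) (hA0 (img k)) (polar Q (F0 (img k)) ((k.1 : V ≃ₗ[F] V) f)) 1 s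
      have v2 := frame3_value (hF0 (img k)) (hA0 (img k)) (polar Q (F0 (img k)) ((k'.1 : V ≃ₗ[F] V) f)) 1 s
      change Q (_ • P' + _ + _) = _ at v1
      change Q (_ • P' + _ + _) = _ at v2
      rw [← hs, e1] at v1
      rw [← hr, e2] at v2
      rw [hs, hr]
      congr 3
      linear_combination v2 - v1
    set g := k'.1⁻¹ * k.1 with hg
    have gp : (g : V ≃ₗ[F] V) p = p := by rw [hg, orth_mul_apply, ← hP', hpk, orth_inv_apply_apply]
    have gf : (g : V ≃ₗ[F] V) f = f := by rw [hg, orth_mul_apply, hfk, orth_inv_apply_apply]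
    have hga : polar Q f ((g : V ≃ₗ[F] V) a) = 0 ∧ polar Q p ((g : V ≃ₗ[F] V) a) = 0 := by
      constructor
      · rw [← gf, orth_polar]; exact (mem_pperp.1 ha).2
      · rw [← gp, orth_polar]; exact (mem_pperp.1 ha).1
    obtain ⟨s, hs, -⟩ := frame3_coords hQ hV hf ha hQa ((g : V ≃ₗ[F] V) a)
    rw [hga.1, hga.2, zero_smul, zero_smul, zero_add, zero_add] at hs
    have hs1 : s * s = 1 := by
      have := orth_map g a
      rw [hs, QuadraticMap.map_smul, smul_eq_mul] at this
      exact mul_right_cancel₀ hQa (by rw [one_mul]; exact this)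
    have hext : ∀ g' : orth Q, (g' : V ≃ₗ[F] V) p = p → (g' : V ≃ₗ[F] V) f = f →
        (g' : V ≃ₗ[F] V) a = s • a → g = g' := by
      intro g' e1 e2 e3
      refine orth_ext fun x => ?_
      obtain ⟨r, hr, -⟩ := frame3_coords hQ hV hf ha hQa x
      rw [hr]
      simp only [map_add, map_smul, gp, gf, hs, e1, e2, e3]
    rcases mul_self_eq_one_iff.1 hs1 with rfl | rfl
    · have := hext 1 rfl rfl (by simp)
      exact Subtype.ext (eq_of_inv_mul_eq_one (hg ▸ this)).symm
    · exfalso
      have := hext (refl Q a) (refl_apply_of_ortho (by rw [polar_comm]; exact (mem_pperp.1 ha).1))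
        (refl_apply_of_ortho (by rw [polar_comm]; exact (mem_pperp.1 ha).2))
        (by rw [refl_apply_self hQa, neg_one_smul])
      have hk : k.1 = k'.1 * refl Q a := by rw [← this, hg, mul_inv_cancel_left]
      have hd := k.2
      rw [hk, dick_mul_odd hQ h2, k'.2, dick_refl hQ hQa] at hd
      exact absurd hd (by decide)
  refine le_trans (Nat.card_le_card_of_injective _ hinj) ?_
  rw [Nat.card_prod, mul_comm (Nat.card F)]
  refine Nat.mul_le_mul_right _ (hS.trans (le_of_eq ?_))
  rw [Nat.card_sum, Nat.card_prod, card_units_field, show Nat.card F ^ 2 - 1 = Nat.card F ^ 2 - 1 ^ 2 by simp,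
    Nat.sq_sub_sq, mul_comm (Nat.card F + 1), Nat.mul_add, mul_one]

/-- Involutions with a prescribed norm of the axis. -/
theorem card_axes (hQ : (polarBilin Q).Nondegenerate) (h2 : (2 : F) ≠ 0) (hV : finrank F V = 3) {d : F}
    (hd : d ≠ 0) :
    Nat.card F * (Nat.card F - 1) ≤ 2 * Nat.card {t : orth Q | ∃ u, Q u = d ∧ t = tvec Q u} := by
  classical
  obtain ⟨p, hp0, hp⟩ := H5.exists_singular (Q := Q) hQ (by omega)
  obtain ⟨f, a, hf, ha, hQa⟩ := exists_frame3 hQ hV hp0 hp
  let u : Fˣ × F → V := fun xz => (xz.1 : F) • p + ((d - xz.2 * xz.2 * Q a) / (xz.1 : F)) • f + xz.2 • a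
  have hu : ∀ xz, Q (u xz) = d := fun xz => by
    rw [frame3_value hf ha]
    field_simp
    ring
  have huinj : Function.Injective u := by
    rintro ⟨x, z⟩ ⟨x', z'⟩ h
    obtain ⟨h1, h2'⟩ := mem_pperp.1 ha
    have e1 := congrArg (polar Q f) h
    have e2 := congrArg (polar Q a) h
    simp only [u, polar_add_right, polar_smul_right, polar_self', hf.right, polar_comm (⇑Q) f p, hf.pair,
      h2', polar_comm (⇑Q) a p, polar_comm (⇑Q) a f, h1, smul_eq_mul, mul_zero, mul_one, add_zero, zero_add] at e1 e2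
    exact Prod.ext (Units.ext e1) (mul_right_cancel₀ (mul_ne_zero h2 hQa) e2)
  set T := {t : orth Q | ∃ u, Q u = d ∧ t = tvec Q u}
  choose r hr hrt using fun t : T => t.2
  let ψ : Fˣ × F → T × ℤˣ := fun xz =>
    (⟨tvec Q (u xz), u xz, hu xz, rfl⟩, if u xz = r ⟨tvec Q (u xz), u xz, hu xz, rfl⟩ then 1 else -1)
  have hψ : Function.Injective ψ := by
    intro xz xz' h
    simp only [ψ, Prod.mk.injEq] at h
    obtain ⟨ht, hsg⟩ := h
    rw [← ht] at hsg
    set t : T := ⟨tvec Q (u xz), u xz, hu xz, rfl⟩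
    have two : ∀ v, Q v = d → tvec Q v = (t : orth Q) → v = r t ∨ v = -r t := by
      intro v hv hvt
      have hv0 : Q v ≠ 0 := hv ▸ hd
      have hr0 : Q (r t) ≠ 0 := (hr t).symm ▸ hd
      have h1 : (tvec Q (r t) : V ≃ₗ[F] V) v = v := by rw [← hrt t, ← hvt]; exact tvec_self hv0
      rw [tvec, orth_mul_apply, negOne_apply, refl_apply, neg_sub, sub_eq_iff_eq_add] at h1
      set c := (Q (r t))⁻¹ * polar Q (r t) v
      have hvr : v = (2⁻¹ * c) • r t := by
        rw [mul_smul, h1, ← two_smul F v, smul_smul, inv_mul_cancel₀ h2, one_smul]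
      set w := 2⁻¹ * c
      have hw : w * w = 1 := by
        have := hv
        rw [hvr, QuadraticMap.map_smul, smul_eq_mul, hr] at this
        exact mul_right_cancel₀ hd (by rw [one_mul]; exact this)
      rcases mul_self_eq_one_iff.1 hw with h | h
      · exact Or.inl (by rw [hvr, h, one_smul])
      · exact Or.inr (by rw [hvr, h, neg_one_smul])
    refine huinj ?_
    have a1 := two _ (hu xz) rfl
    have a2 := two _ (hu xz') (congrArg Subtype.val ht).symm
    by_cases c1 : u xz = r t <;> by_cases c2 : u xz' = r t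
    · rw [c1, c2]
    · rw [if_pos c1, if_neg c2] at hsg; exact absurd hsg (by decide)
    · rw [if_neg c1, if_pos c2] at hsg; exact absurd hsg (by decide)
    · rw [a1.resolve_left c1, a2.resolve_left c2]
  have := Nat.card_le_card_of_injective ψ hψ
  rw [Nat.card_prod, Nat.card_prod, card_units_field] at this
  have h2' : Nat.card ℤˣ = 2 := by simp [Nat.card_eq_fintype_card]
  rw [h2'] at this
  rwa [mul_comm (Nat.card F), mul_comm 2]

end Cfsg.Agent.H6.OmegaNine
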