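import Cfsg.Agent.H5.OmegaForms
import Cfsg.Agent.H5.OmegaGL
import Cfsg.Agent.H5.StabNondegGL
import Cfsg.Agent.H5.DecGL

/-!
Dimension nine: stabilisers of singular subspaces, of non-degenerate even subspaces and of decompositions
into three non-degenerate three-dimensional pieces.
-/

set_option autoImplicit false

namespace Cfsg.Agent.H6.OmegaNine

open Cfsg

variable {F : Type*} [Field F] [Fintype F]

theorem two_ne (hodd : Odd (Fintype.card F)) : (2 : F) ≠ 0 := Ring.two_ne_zero fun hc => by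
  have := FiniteField.even_card_of_char_two hc
  rw [Nat.odd_iff] at hodd
  omega

theorem card_nine : Fintype.card (Unit ⊕ (Fin 4 ⊕ Fin 4)) = 9 := by simp

/-- Stabilisers of totally singular subspaces. -/
theorem singular (hodd : Odd (Fintype.card F)) :
    ∀ W : Submodule F (Unit ⊕ (Fin 4 ⊕ Fin 4) → F), W ≠ ⊥ → Cfsg.Geo.IsTotallySingularQuad (Cfsg.quadFormOdd 4 F) W → Cfsg.Geo.IsMaximalIn (Cfsg.Geo.omegaGL (Cfsg.quadFormOdd 4 F)) (Cfsg.Geo.subspaceStabilizer W ⊓ Cfsg.Geo.omegaGL (Cfsg.quadFormOdd 4 F)) := fun W h0 hW =>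
  H5.isMaximalIn_stab_singular (H5.qOdd 4 F) (H5.coe_qOdd 4) (H5.qOdd_nondegenerate 4 (two_ne hodd))
    (by rw [card_nine]; omega) W h0 hW (fun U _ _ _ h => by rw [card_nine] at h; omega)

/-- Stabilisers of non-degenerate subspaces of even dimension. -/
theorem nondeg (hodd : Odd (Fintype.card F)) :
    ∀ W : Submodule F (Unit ⊕ (Fin 4 ⊕ Fin 4) → F), W ≠ ⊥ → Even (Module.finrank F W) → Cfsg.Geo.IsNondegenerateOn (QuadraticMap.polar (Cfsg.quadFormOdd 4 F)) W → ¬ (Fintype.card F = 3 ∧ Module.finrank F W = 2 ∧ Cfsg.Geo.IsPlusTypeOn (Cfsg.quadFormOdd 4 F) W) → Cfsg.Geo.IsMaximalIn (Cfsg.Geo.omegaGL (Cfsg.quadFormOdd 4 F)) (Cfsg.Geo.subspaceStabilizer W ⊓ Cfsg.Geo.omegaGL (Cfsg.quadFormOdd 4 F)) := by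
  intro W h0 he hW hne
  have h2 := two_ne hodd
  have hf : ⇑(H5.qOdd 4 F) = Cfsg.quadFormOdd 4 F := H5.coe_qOdd 4
  have hQ := H5.qOdd_nondegenerate 4 h2
  have hι := card_nine
  have hle := Submodule.finrank_le W
  rw [Module.finrank_fintype_fun_eq_card, hι] at hle
  have hW' := H5.inf_perp_of_isNondegenerateOn (H5.qOdd 4 F) hf hW
  have hsum := H5.finrank_perp_add hQ W
  rw [Module.finrank_fintype_fun_eq_card, hι] at hsum
  obtain ⟨k, hk⟩ := he
  have hpos : Module.finrank F W ≠ 0 := fun h => h0 (Submodule.finrank_eq_zero.1 h)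
  refine H5.isMaximalIn_stab_nondeg_four (H5.qOdd 4 F) hf hQ W (by omega) ?_ h0 (fun h => ?_) hW'
    (fun h => by omega) ?_
  · by_cases h6 : 5 ≤ Module.finrank F W
    · exact Or.inl (Or.inl h6)
    · exact Or.inl (Or.inr (by omega))
  · rw [h, finrank_top, Module.finrank_fintype_fun_eq_card, hι] at hk
    omega
  · rintro Z hZ ⟨hq, hZ2, x, hx, hx0, hqx⟩
    rw [Nat.card_eq_fintype_card] at hq
    rcases hZ with rfl | rfl
    · refine hne ⟨?_, hZ2, by rw [← hf]; exact H5.isPlusTypeOn_plane _ hZ2 hx hx0 hqx⟩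
      have := Fintype.one_lt_card (α := F)
      rw [Nat.odd_iff] at hodd
      omega
    · omega

/-- Stabilisers of decompositions into three three-dimensional pieces. -/
theorem decThree (hodd : Odd (Fintype.card F)) :
    5 ≤ Fintype.card F → ∀ D : Fin 3 → Submodule F (Unit ⊕ (Fin 4 ⊕ Fin 4) → F), Cfsg.Geo.IsOrthogonalMDecomposition (Cfsg.quadFormOdd 4 F) 3 D → Cfsg.Geo.IsMaximalIn (Cfsg.Geo.omegaGL (Cfsg.quadFormOdd 4 F)) (Cfsg.Geo.decompositionStabilizer D ⊓ Cfsg.Geo.omegaGL (Cfsg.quadFormOdd 4 F)) := fun h5 D hD =>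
  H5.isMaximalIn_dec_five (H5.coe_qOdd 4) (H5.qOdd_nondegenerate 4 (two_ne hodd))
    (by rw [card_nine]; omega) hD le_rfl (fun _ => h5) (fun _ h => by omega)

end Cfsg.Agent.H6.OmegaNine
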