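import Cfsg.Agent.H6.OmegaNine.Basic
import Cfsg.Agent.H5.FrameGL

/-!
Dimension nine: stabilisers of frames over prime fields.
-/

set_option autoImplicit false

namespace Cfsg.Agent.H6.OmegaNine

open Cfsg

variable {F : Type*} [Field F] [Fintype F]

/-- Stabilisers of decompositions into nine lines. -/
theorem frame (hodd : Odd (Fintype.card F)) :
    (Fintype.card F).Prime → ∀ D : Fin 9 → Submodule F (Unit ⊕ (Fin 4 ⊕ Fin 4) → F), Cfsg.Geo.IsOrthogonalMDecomposition (Cfsg.quadFormOdd 4 F) 1 D → Cfsg.Geo.IsMaximalIn (Cfsg.Geo.omegaGL (Cfsg.quadFormOdd 4 F)) (Cfsg.Geo.decompositionStabilizer D ⊓ Cfsg.Geo.omegaGL (Cfsg.quadFormOdd 4 F)) := fun hp _ hD =>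
  H5.isMaximalIn_frame_of (H5.coe_qOdd 4) (H5.qOdd_nondegenerate 4 (two_ne hodd))
    (Or.inr (by rw [card_nine])) hD hodd hp

end Cfsg.Agent.H6.OmegaNine
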