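import Cfsg.Agent.H6.OmegaNine.Basic
import Cfsg.Agent.H98.OrthSubMain

/-!
Dimension nine: subfield subgroups.
-/

set_option autoImplicit false

namespace Cfsg.Agent.H6.OmegaNine

open Cfsg

variable {F : Type*} [Field F] [Fintype F]

/-- Subfield subgroups for extensions of prime degree. -/
theorem subfield (hodd : Odd (Fintype.card F)) :
    ∀ (F₀ : Subfield F) (r : ℕ) (P : Matrix.GeneralLinearGroup (Unit ⊕ (Fin 4 ⊕ Fin 4)) F), r.Prime → Fintype.card F = Nat.card F₀ ^ r → Cfsg.Geo.IsQuadFormRationalStructure (Cfsg.quadFormOdd 4 F) F₀ P → Cfsg.Geo.IsMaximalIn (Cfsg.Geo.omegaGL (Cfsg.quadFormOdd 4 F)) (Cfsg.Geo.subfieldSubgroup F₀ P ⊓ Cfsg.Geo.omegaGL (Cfsg.quadFormOdd 4 F)) :=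
  fun F₀ _ P hr hc hP => H98.OSub.subfield_maximal_of (H5.qOdd 4 F) (H5.coe_qOdd 4)
    (H5.qOdd_nondegenerate 4 (two_ne hodd)) (Or.inr ⟨Or.inr (by rw [card_nine]), two_ne hodd⟩) F₀ hr
    (by rw [Nat.card_eq_fintype_card]; exact hc) P one_ne_zero (fun u hu => by rw [one_mul]; exact hP u hu)

end Cfsg.Agent.H6.OmegaNine
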