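import Cfsg.Agent.H5.C7.Linear
import Cfsg.Agent.H58.Wreath.Transport
import Cfsg.Agent.H25.GeoLists.SpTensor.Maximal

/-!
The stabiliser of a decomposition of a space as a tensor square, described by its action on pure vectors.
-/

set_option autoImplicit false
set_option linter.unusedSectionVars false

namespace Cfsg.Agent.H6.OmegaNine

open Matrix Cfsg.Geo

variable {F : Type*} [Field F] {ι : Type} [Fintype ι] [DecidableEq ι] {m : ℕ}

/-- The frame of pairs attached to a frame of functions on two letters. -/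
def pairFrame (e : ι ≃ (Fin 2 → Fin m)) : ι ≃ Fin m × Fin m := e.trans (finTwoArrowEquiv (Fin m))

/-- The pure vectors of a tensor square. -/
noncomputable def pu2 (e : ι ≃ (Fin 2 → Fin m)) (P : GL ι F) :
    (Fin m → F) →ₗ[F] (Fin m → F) →ₗ[F] (ι → F) :=
  (H1.TensorNM.pure).compr₂ (H1.TensorNM.tensorEquiv (pairFrame e) P).toLinearMap

theorem pu2_apply (e : ι ≃ (Fin 2 → Fin m)) (P : GL ι F) (x u : Fin m → F) :
    pu2 e P x u = H1.TensorNM.tensorEquiv (pairFrame e) P (H1.TensorNM.pure x u) := rfl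

theorem pu2_eq (e : ι ≃ (Fin 2 → Fin m)) (P : GL ι F) (x u : Fin m → F) :
    pu2 e P x u = (P : Matrix ι ι F) *ᵥ (H5.C7.pv ![x, u] ∘ e) := by
  rw [pu2_apply, H1.TensorNM.tensorEquiv_apply]
  congr 1
  funext i
  simp [pairFrame, H1.TensorNM.pure, H5.C7.pv, Fin.prod_univ_two]

theorem pu2_injective_vec (e : ι ≃ (Fin 2 → Fin m)) (P : GL ι F) {X Y : (Fin 2 → Fin m) → F}
    (h : (P : Matrix ι ι F) *ᵥ (X ∘ e) = (P : Matrix ι ι F) *ᵥ (Y ∘ e)) : X = Y := by
  have h1 := Matrix.mulVec_injective_iff_isUnit.2 P.isUnit h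
  funext a
  simpa using congrFun h1 (e.symm a)

/-- The tensor wreath stabiliser of a square: pure maps and pure maps followed by the exchange. -/
theorem mem_wreath_two (hm : 0 < m) (e : ι ≃ (Fin 2 → Fin m)) (P g : GL ι F) :
    g ∈ tensorWreathSubgroup m 2 e P ↔ ∃ G K : (Fin m → F) →ₗ[F] (Fin m → F),
      (∀ x u, (g : Matrix ι ι F) *ᵥ pu2 e P x u = pu2 e P (G x) (K u)) ∨
      (∀ x u, (g : Matrix ι ι F) *ᵥ pu2 e P x u = pu2 e P (G u) (K x)) := by
  rw [← H58.Wreath.frameHom_wreath]
  obtain ⟨h, rfl⟩ := (H58.Wreath.frameHom e P).surjective g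
  have hmem : H58.Wreath.frameHom e P h ∈
      (tensorWreathStandard m 2 F).map (H58.Wreath.frameHom e P).toMonoidHom ↔ h ∈ tensorWreathStandard m 2 F := by
    constructor
    · rintro ⟨k, hk, he⟩
      rwa [← (H58.Wreath.frameHom e P).injective he]
    · exact fun hk => ⟨h, hk, rfl⟩
  have hact : ∀ x u, (H58.Wreath.frameHom e P h : Matrix ι ι F) *ᵥ pu2 e P x u =
      (P : Matrix ι ι F) *ᵥ (((h : Matrix _ _ F) *ᵥ H5.C7.pv ![x, u]) ∘ e) := fun x u => by
    rw [pu2_eq, H58.Wreath.frameHom_mulVec]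
  rw [hmem]
  constructor
  · intro hh
    obtain ⟨π, k, hk⟩ := H5.C7.isWreath_of_mem_standard hm hh
    refine ⟨(k 0).mulVecLin, (k 1).mulVecLin, ?_⟩
    have hπ : ∀ π : Equiv.Perm (Fin 2), π = 1 ∨ π = Equiv.swap 0 1 := by decide
    rcases hπ π with rfl | rfl
    · refine Or.inl fun x u => ?_
      rw [hact, hk, H5.C7.wm_pv, pu2_eq]
      congr 3
      funext j
      fin_cases j <;> simp
    · refine Or.inr fun x u => ?_
      rw [hact, hk, H5.C7.wm_pv, pu2_eq]
      congr 3
      funext j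
      fin_cases j <;> simp
  · rintro ⟨G, K, hGK⟩
    have hb : ∀ b : Fin 2 → Fin m, (Pi.single b (1 : F) : (Fin 2 → Fin m) → F) =
        H5.C7.pv ![Pi.single (b 0) 1, Pi.single (b 1) 1] := by
      intro b
      funext a
      simp only [H5.C7.pv, Fin.prod_univ_two, Pi.single_apply]
      have : a = b ↔ a 0 = b 0 ∧ a 1 = b 1 := by simp [funext_iff, Fin.forall_fin_two]
      by_cases h0 : a 0 = b 0 <;> by_cases h1 : a 1 = b 1 <;> simp [h0, h1, this]
    have main : ∀ π : Equiv.Perm (Fin 2),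
        (∀ x u, (h : Matrix _ _ F) *ᵥ H5.C7.pv ![x, u] =
          H5.C7.pv fun j => (![LinearMap.toMatrix' G, LinearMap.toMatrix' K] j) *ᵥ ![x, u] (π j)) →
        h ∈ tensorWreathStandard m 2 F := by
      intro π hπ
      refine H5.C7.mem_standard_of_isWreath hm ⟨π, ![LinearMap.toMatrix' G, LinearMap.toMatrix' K], ?_⟩
      refine Matrix.ext_iff_mulVec.2 fun v => ?_
      have key : (h : Matrix _ _ F).mulVecLin =
          (H5.C7.wm π ![LinearMap.toMatrix' G, LinearMap.toMatrix' K]).mulVecLin :=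
        (Pi.basisFun F (Fin 2 → Fin m)).ext fun b => by
          rw [Pi.basisFun_apply, Matrix.mulVecLin_apply, Matrix.mulVecLin_apply, hb, hπ, H5.C7.wm_pv]
      exact LinearMap.congr_fun key v
    rcases hGK with hGK | hGK
    · refine main 1 fun x u => ?_
      have := hGK x u
      rw [hact, pu2_eq] at this
      rw [pu2_injective_vec e P this]
      congr 1
      funext j
      fin_cases j <;> simp [LinearMap.toMatrix'_mulVec]
    · refine main (Equiv.swap 0 1) fun x u => ?_
      have := hGK x u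
      rw [hact, pu2_eq] at this
      rw [pu2_injective_vec e P this]
      congr 1
      funext j
      fin_cases j <;> simp [LinearMap.toMatrix'_mulVec]

end Cfsg.Agent.H6.OmegaNine
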