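import Cfsg.Agent.H1.OmegaNine.Tensor.Setting
import Cfsg.Agent.H6.OmegaNine.TensorSquareMem
import Cfsg.Agent.H50.TensorO.Maximal

/-!
The stabiliser of a decomposition of a nine-dimensional orthogonal space as a tensor square is maximal,
given the analysis of its overgroups.
-/

set_option autoImplicit false
set_option linter.unusedSectionVars false

namespace Cfsg.Agent.H6.OmegaNine

open QuadraticMap hiding sq
open Cfsg.Agent.H5 Cfsg.Agent.H19.OrthTensor Module
open Cfsg.Agent.H1.OmegaNine.Tensor (Sw)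
open scoped Matrix

variable {ι : Type} [Fintype ι] [DecidableEq ι] {F : Type*} [Field F] [Finite F]

theorem sum_pair (e : (Fin 2 → Fin 3) → F) :
    ∑ a, e a = ∑ p : Fin 3 × Fin 3, e ((finTwoArrowEquiv (Fin 3)).symm p) :=
  ((finTwoArrowEquiv (Fin 3)).symm.sum_comp e).symm

/-- The stabiliser of a tensor square decomposition is maximal, given the overgroup theorem. -/
theorem tensor_square_maximal [Fintype F] (Q : QuadraticForm F (ι → F)) {f : (ι → F) → F} (hf : ⇑Q = f)
    (h2 : (2 : F) ≠ 0) (hQ : (polarBilin Q).Nondegenerate) (h5 : 5 ≤ Fintype.card F)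
    (hover : ∀ [Finite (ι → F)] (qA qB : QuadraticForm F (Fin 3 → F))
      (pu : (Fin 3 → F) →ₗ[F] (Fin 3 → F) →ₗ[F] (ι → F)) (T : TO Q qA qB pu) (W : Sw T)
      (M : Subgroup (orth Q)), finrank F (Fin 3 → F) = 3 → 5 ≤ Nat.card F → M ≤ commutator (orth Q) →
      (∀ m ∈ commutator (orth Q), m ∈ W.N → m ∈ M) → commutator (orth Q) ≤ M ∨ ∀ m ∈ M, m ∈ W.N)
    (e : ι ≃ (Fin 2 → Fin 3)) (P : GL ι F) (f₁ : (Fin 3 → F) → (Fin 3 → F) → F)
    (hf₁ : Cfsg.Geo.IsSymmetricForm f₁)
    (hT : Cfsg.Geo.IsTensorPowerFormStructure id (QuadraticMap.polar f) f₁ e P) :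
    Cfsg.Geo.IsMaximalIn (Cfsg.Geo.omegaGL f)
      (Cfsg.Geo.tensorWreathSubgroup 3 2 e P ⊓ Cfsg.Geo.omegaGL f) := by
  classical
  haveI : Finite (ι → F) := Pi.finite
  obtain ⟨c, hc, hT⟩ := hT
  obtain ⟨qA, hAn, hAp, -⟩ := H50.TensorO.exists_quad h2 hf₁ hc
  obtain ⟨qB, hBn, hBp, hBv⟩ := H50.TensorO.exists_quad h2 hf₁ one_ne_zero
  simp only [one_mul] at hBp
  set pu := pu2 e P with hpu
  have hpu' : ∀ x u, pu x u = H1.TensorNM.tensorEquiv (pairFrame e) P (H1.TensorNM.pure x u) := fun x u => rfl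
  have hs : H1.TensorNM.Sesq (RingHom.id F) 1 f₁ := ⟨hf₁.bilinear.add_left, hf₁.bilinear.smul_left,
    fun x y => by rw [hf₁.symm y x, RingHom.id_apply, one_mul]⟩
  have hgram : ∀ X Y : Fin 3 × Fin 3 → F,
      polar Q ((P : Matrix ι ι F) *ᵥ (X ∘ pairFrame e)) ((P : Matrix ι ι F) *ᵥ (Y ∘ pairFrame e)) =
        c * Cfsg.Geo.formOfGram (RingHom.id F) (Matrix.kroneckerMap (· * ·) (Cfsg.Geo.gramMatrix f₁)
          (Cfsg.Geo.gramMatrix f₁)) X Y := by
    intro X Y
    have := hT (X ∘ finTwoArrowEquiv (Fin 3)) (Y ∘ finTwoArrowEquiv (Fin 3))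
    rw [hf]
    refine this.trans ?_
    congr 1
    rw [sum_pair]
    refine Finset.sum_congr rfl fun a _ => ?_
    rw [sum_pair]
    refine Finset.sum_congr rfl fun b _ => ?_
    simp [Fin.prod_univ_two, Matrix.kroneckerMap_apply]
  have form : ∀ x u y v, polar Q (pu x u) (pu y v) = polar qA x y * polar qB u v := by
    intro x u y v
    rw [hAp, hBp, hpu', hpu', H1.TensorNM.tensorEquiv_apply, H1.TensorNM.tensorEquiv_apply, hgram,
      H1.TensorNM.gram_pure hs hs, mul_assoc]
  have hgen : ∀ φ : (ι → F) →ₗ[F] F, (∀ x u, φ (pu x u) = 0) → φ = 0 := fun φ hφ => LinearMap.ext fun v => by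
    obtain ⟨X, rfl⟩ := (H1.TensorNM.tensorEquiv (pairFrame e) P).surjective v
    exact LinearMap.congr_fun (H25.GeoLists.pu_ext
      (f := φ.comp (H1.TensorNM.tensorEquiv (pairFrame e) P).toLinearMap) (g := 0) fun x z => hφ x z) X
  have hext : ∀ k k' : orth Q, (∀ x u, (k : (ι → F) ≃ₗ[F] (ι → F)) (pu x u) = (k' : (ι → F) ≃ₗ[F] (ι → F)) (pu x u)) →
      k = k' := fun k k' hk => orth_ext fun v => funext fun i => by
    have := LinearMap.congr_fun (hgen ((LinearMap.proj i).comp
      ((k : (ι → F) ≃ₗ[F] (ι → F)).toLinearMap - (k' : (ι → F) ≃ₗ[F] (ι → F)).toLinearMap))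
      (fun x u => by simp [hk x u])) v
    simpa [sub_eq_zero] using this
  have hex : ∀ (g : orth qA) (h : orth qB), ∃ k : orth Q, ∀ x u,
      (k : (ι → F) ≃ₗ[F] (ι → F)) (pu x u) =
        pu ((g : (Fin 3 → F) ≃ₗ[F] (Fin 3 → F)) x) ((h : (Fin 3 → F) ≃ₗ[F] (Fin 3 → F)) u) := by
    intro g h
    obtain ⟨K, -, hK⟩ := H25.GeoLists.exists_pure_elem (pairFrame e) P g.1.toLinearMap h.1.toLinearMap g.1.injective h.1.injective
    let L : (ι → F) →ₗ[F] (ι → F) := Matrix.mulVecLin (K : Matrix ι ι F)
    have hLinj : Function.Injective L := Matrix.mulVec_injective_iff_isUnit.2 K.isUnit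
    let Le := LinearEquiv.ofInjectiveEndo L hLinj
    have hLe : ∀ x u, Le (pu x u) = pu ((g : (Fin 3 → F) ≃ₗ[F] _) x) ((h : (Fin 3 → F) ≃ₗ[F] _) u) :=
      fun x u => hK x u
    have hp : ∀ v w, polar Q (Le v) (Le w) = polar Q v w := by
      intro v
      have h1 : ∀ x u w, polar Q (Le (pu x u)) (Le w) = polar Q (pu x u) w := by
        intro x u w
        have := LinearMap.congr_fun (hgen ((polarBilin Q (Le (pu x u))).comp Le.toLinearMap - polarBilin Q (pu x u))
          fun y t => by simp [hLe, form, orth_polar]) w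
        simpa [sub_eq_zero] using this
      intro w
      have := LinearMap.congr_fun (hgen ((polarBilin Q (Le w)).comp Le.toLinearMap - polarBilin Q w)
        fun y t => by
          simp only [LinearMap.sub_apply, LinearMap.comp_apply, LinearEquiv.coe_coe, polarBilin_apply_apply]
          rw [polar_comm, h1, polar_comm, sub_self]) v
      simp only [LinearMap.sub_apply, LinearMap.comp_apply, LinearEquiv.coe_coe, polarBilin_apply_apply,
        LinearMap.zero_apply, sub_eq_zero] at this
      rw [polar_comm, this, polar_comm]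
    refine ⟨⟨Le, mem_orth.2 fun v => ?_⟩, hLe⟩
    have := hp v v
    rw [polar_self', polar_self'] at this
    exact mul_left_cancel₀ h2 this
  choose Ψ hΨ using hex
  let kL : orth qA →* orth Q :=
    { toFun := fun g => Ψ g 1
      map_one' := hext _ _ fun x u => hΨ _ _ x u
      map_mul' := fun g g' => hext _ _ fun x u => by
        rw [orth_mul_apply, hΨ, hΨ, hΨ, orth_mul_apply]
        rfl }
  let kR : orth qB →* orth Q :=
    { toFun := fun h => Ψ 1 h
      map_one' := hext _ _ fun x u => hΨ _ _ x u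
      map_mul' := fun g g' => hext _ _ fun x u => by
        rw [orth_mul_apply, hΨ, hΨ, hΨ, orth_mul_apply]
        rfl }
  let T : TO Q qA qB pu :=
    { C := LinearMap.mk₂ F (fun u v => (LinearMap.BilinForm.toDual (polarBilin qA) hAn).symm
        ((polarBilin Q v).comp (pu.flip u)))
        (fun u u' v => by simp only [map_add, LinearMap.comp_add])
        (fun r u v => by simp only [map_smul, LinearMap.comp_smul])
        (fun u v v' => by simp only [map_add, LinearMap.add_comp])
        (fun r u v => by simp only [map_smul, LinearMap.smul_comp])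
      C' := LinearMap.mk₂ F (fun x v => (LinearMap.BilinForm.toDual (polarBilin qB) hBn).symm
        ((polarBilin Q v).comp (pu x)))
        (fun u u' v => by simp only [map_add, LinearMap.comp_add])
        (fun r u v => by simp only [map_smul, LinearMap.comp_smul])
        (fun u v v' => by simp only [map_add, LinearMap.add_comp])
        (fun r u v => by simp only [map_smul, LinearMap.smul_comp])
      kR := kR
      kL := kL
      two := h2
      ndV := hQ
      ndA := hAn
      ndB := hBn
      form := form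
      adj := fun u v x =>
        LinearMap.BilinForm.apply_toDual_symm_apply (hB := hAn) ((polarBilin Q v).comp (pu.flip u)) x
      adj' := fun x v u =>
        LinearMap.BilinForm.apply_toDual_symm_apply (hB := hBn) ((polarBilin Q v).comp (pu x)) u
      span := fun v hv => hQ.1 v fun y => LinearMap.congr_fun (hgen (polarBilin Q v) hv) y
      kR_pu := fun k x u => hΨ 1 k x u
      kL_pu := fun g x u => hΨ g 1 x u }
  have a3 : finrank F (Fin 3 → F) = 3 := by simp
  have q5 : 5 ≤ Nat.card F := by rwa [Nat.card_eq_fintype_card]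
  -- the exchange of the two factors
  have hexc : ∃ σ : orth Q, ∀ x u, (σ : (ι → F) ≃ₗ[F] (ι → F)) (pu x u) = pu u x := by
    let te := H1.TensorNM.tensorEquiv (pairFrame e) P
    let L : (ι → F) ≃ₗ[F] (ι → F) :=
      te.symm.trans ((LinearEquiv.funCongrLeft F F (Equiv.prodComm (Fin 3) (Fin 3))).trans te)
    have hL : ∀ x u, L (pu x u) = pu u x := fun x u => by
      show te (LinearEquiv.funCongrLeft F F (Equiv.prodComm (Fin 3) (Fin 3)) (te.symm (te (H1.TensorNM.pure x u)))) = _
      rw [LinearEquiv.symm_apply_apply]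
      refine congrArg te ?_
      funext p
      simp [H1.TensorNM.pure, mul_comm]
    have hp : ∀ v w, polar Q (L v) (L w) = polar Q v w := by
      have h1 : ∀ x u w, polar Q (L (pu x u)) (L w) = polar Q (pu x u) w := by
        intro x u w
        have := LinearMap.congr_fun (hgen ((polarBilin Q (L (pu x u))).comp L.toLinearMap - polarBilin Q (pu x u))
          fun y t => by simp [hL, form, hAp, hBp]; ring) w
        simpa [sub_eq_zero] using this
      intro v w
      have := LinearMap.congr_fun (hgen ((polarBilin Q (L w)).comp L.toLinearMap - polarBilin Q w)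
        fun y t => by
          simp only [LinearMap.sub_apply, LinearMap.comp_apply, LinearEquiv.coe_coe, polarBilin_apply_apply]
          rw [polar_comm, h1, polar_comm, sub_self]) v
      simp only [LinearMap.sub_apply, LinearMap.comp_apply, LinearEquiv.coe_coe, polarBilin_apply_apply,
        LinearMap.zero_apply, sub_eq_zero] at this
      rw [polar_comm, this, polar_comm]
    refine ⟨⟨L, mem_orth.2 fun v => ?_⟩, hL⟩
    have := hp v v
    rw [polar_self', polar_self'] at this
    exact mul_left_cancel₀ h2 this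
  obtain ⟨σ, hσ⟩ := hexc
  have hθ : ∀ x, qB ((LinearEquiv.refl F (Fin 3 → F)) x) = c⁻¹ * qA x := fun x => by
    refine mul_left_cancel₀ h2 ?_
    rw [mul_left_comm, ← polar_self', ← polar_self', hAp, hBp, LinearEquiv.refl_apply, inv_mul_cancel_left₀ hc]
  let W : Sw T :=
    { σ := σ
      θ := LinearEquiv.refl F (Fin 3 → F)
      c := c⁻¹
      hc := inv_ne_zero hc
      hθ := hθ
      hσ := fun x u => hσ x u }
  set S := Cfsg.Geo.tensorWreathSubgroup 3 2 e P
  have hS : ∀ g : orth Q, toGLHom Q hf g ∈ S ↔ g ∈ W.N := by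
    intro g
    rw [W.mem_N, mem_wreath_two (by omega)]
    simp only [toGLHom_mulVec Q hf]
    constructor
    · rintro ⟨G, K, h | h⟩
      · exact Or.inl (T.mem_PG_of_isPureT a3 (by rw [a3]; omega) ⟨G, K, h⟩)
      · refine Or.inr (T.mem_PG_of_isPureT a3 (by rw [a3]; omega) ⟨G, K, fun x u => ?_⟩)
        rw [orth_mul_apply]
        show (g : (ι → F) ≃ₗ[F] (ι → F)) ((σ : (ι → F) ≃ₗ[F] (ι → F)) (pu x u)) = _
        rw [hσ]
        exact h u x
    · rintro (h | h)
      · obtain ⟨G, K, hGK⟩ := T.isPureT_of_mem h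
        exact ⟨G, K, Or.inl hGK⟩
      · obtain ⟨G, K, hGK⟩ := T.isPureT_of_mem h
        refine ⟨G, K, Or.inr fun x u => ?_⟩
        have := hGK u x
        rw [orth_mul_apply] at this
        change (g : (ι → F) ≃ₗ[F] (ι → F)) ((σ : (ι → F) ≃ₗ[F] (ι → F)) (pu u x)) = _ at this
        rw [hσ] at this
        exact this
  have hV : 3 ≤ finrank F (ι → F) := by rw [T.finrank_mul, a3]; omega
  refine isMaximalIn_omegaGL Q hf S ?_ ?_
  · by_contra! hall
    obtain ⟨p, hp0, hp⟩ := H5.exists_singular (Q := qA) hAn (by omega)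
    obtain ⟨p', hpp⟩ := exists_hypPair (Q := qA) hAn hp0 hp
    obtain ⟨a, ha, hQa⟩ := exists_anisotropic (hpp.inf_perp hAn)
      (by have := hpp.finrank_pperp hAn; omega)
    obtain ⟨w, hw0, hw⟩ := H5.exists_singular (Q := qB) hBn (by omega)
    obtain ⟨h, hh⟩ := exists_hypPair (Q := qB) hBn hw0 hw
    set v := pu p h + pu a w with hv
    have hQv : Q v = 0 := by
      rw [hv, QuadraticMap.map_add (⇑Q), T.Q_pu, T.Q_pu, hp, hw, form, (mem_pperp.1 ha).1]
      simp
    have hnpure : ∀ x u, v ≠ pu x u := by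
      intro x u he
      have e1 := congrArg (T.C w) he
      have e2 := congrArg (T.C h) he
      rw [hv, map_add, T.C_pu, T.C_pu, T.C_pu, polar_comm (⇑qB) h w, hh.pair, polar_self', hw] at e1
      rw [hv, map_add, T.C_pu, T.C_pu, T.C_pu, polar_self', hh.right, hh.pair] at e2
      simp at e1 e2
      have hp'x : polar qB u w * polar qA p' x = 1 := by
        have := congrArg (polar qA p') e1
        rwa [polar_smul_right, polar_comm (⇑qA) p' p, hpp.pair, smul_eq_mul, eq_comm] at this
      have ha'x : polar qB u h * polar qA p' x = 0 := by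
        have := congrArg (polar qA p') e2
        rwa [polar_smul_right, (mem_pperp.1 ha).2, smul_eq_mul, eq_comm] at this
      rw [(mul_eq_zero.1 ha'x).resolve_right (right_ne_zero_of_mul_eq_one hp'x), zero_smul] at e2
      exact hQa (by rw [e2, QuadraticMap.map_zero])
    have hv0 : v ≠ 0 := fun h0 => hnpure 0 0 (by rw [h0, map_zero])
    have hpw0 : pu p w ≠ 0 := fun h0 => hp0 (T.pu_eq_zero_left h0 hw0)
    have hpwQ : Q (pu p w) = 0 := by rw [T.Q_pu, hp, zero_mul, mul_zero]
    obtain ⟨z, hz⟩ := exists_hypPair (Q := Q) hQ hpw0 hpwQ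
    obtain ⟨k, hk, t, ht, hkt⟩ := exists_pairGroup_map hQ hV hz hv0 hQv
    have hmem := hall _ (inv_mem (pairGroup_le_omega hQ h2 _ _ hk))
    rw [mem_wreath_two (by omega)] at hmem
    simp only [toGLHom_mulVec Q hf] at hmem
    obtain ⟨G, K, hGK | hGK⟩ := hmem
    · refine hnpure (t • G p) (K w) ?_
      rw [map_smul, LinearMap.smul_apply, ← hGK, ← map_smul, ← hkt, orth_inv_apply_apply]
    · refine hnpure (t • G w) (K p) ?_
      rw [map_smul, LinearMap.smul_apply, ← hGK, ← map_smul, ← hkt, orth_inv_apply_apply]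
  · intro M hM g hgM hgΩ hgS
    rcases hover qA qB pu T W (M ⊓ commutator (orth Q)) a3 q5 inf_le_right
      (fun m hm hN => ⟨hM m hm ((hS m).2 hN), hm⟩) with h | h
    · exact h.trans inf_le_left
    · exact absurd ((hS g).2 (h g ⟨hgM, hgΩ⟩)) hgS

end Cfsg.Agent.H6.OmegaNine
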